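import Cfsg.Agent.Lib.G2S.Syl
import Cfsg.Agent.Lib.H81.G2S

/-! Generators of the Sylow 2-subgroups of `G₂(q)`, `q` odd. -/

set_option autoImplicit false

namespace H91.G2

open H91.G2S H91.G2S.Md

theorem zpow_mk {R : Type*} [CommRing R] (x y : R) (i : ℤ) :
    (⟨x, y, false, false⟩ : Md R) ^ i = ⟨i * x, i * y, false, false⟩ := by
  induction i using Int.induction_on with
  | zero => simp [one_def]
  | succ i ih => rw [zpow_add_one, ih, mul00]; push_cast; congr 1 <;> ring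
  | pred i ih => rw [zpow_sub_one, ih, inv00, mul00]; push_cast; congr 1 <;> ring

theorem exists_g2s {F : Type*} [Field F] [Fintype F] (hF : Odd (Fintype.card F))
    (P : Sylow 2 (Cfsg.Lie.chevG2.group F)) :
    ∃ (n : ℕ) (a b u v : (P : Subgroup (Cfsg.Lie.chevG2.group F))), H81.G2S n a b u v ∧
      Nat.card (P : Subgroup (Cfsg.Lie.chevG2.group F)) = 2 ^ (2 * n + 2) := by
  obtain ⟨k, ⟨e⟩⟩ := sylow_g2 hF P
  refine ⟨k + 2, e.symm ⟨1, 0, false, false⟩, e.symm ⟨0, 1, false, false⟩, e.symm ⟨0, 0, false, true⟩,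
    e.symm ⟨0, 0, true, false⟩, ⟨by omega, ?_, fun i j => ?_, ?_, ?_, ?_, ?_, ?_, ?_⟩, ?_⟩
  pick_goal 2
  · rw [← map_zpow, ← map_zpow, ← map_mul, map_eq_one_iff _ e.symm.injective, zpow_mk, zpow_mk, mul00, one_def]
    simp only [mul_one, mul_zero, add_zero, zero_add, Md.mk.injEq, and_true, ZMod.intCast_zmod_eq_zero_iff_dvd]
    push_cast
    rfl
  pick_goal 8
  · rw [Nat.card_congr e.toEquiv, Md.card, Nat.card_zmod]; ring
  all_goals
    apply e.injective
    simp [one_def]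

end H91.G2
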