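import Cfsg.Agent.Lib.G2S.Mod
import Cfsg.Agent.Lib.PGroup.Basic
import Cfsg.Agent.Lib.GL.SylowSL2
import Cfsg.Agent.Lib.ChevMat.SL2
import Cfsg.Agent.Lib.Chev.Main
import Cfsg.Agent.S1059

/-!
# The Sylow 2-subgroups of `G₂(q)`, `q` odd
-/

set_option autoImplicit false

namespace H91.G2S

open Md Matrix H64.SL2
open scoped MatrixGroups

variable {G : Type*} [Group G]

theorem exists_inj {L : Type*} [Group L] (ψ : L × L →* G) {k : ℕ} {c w n : L} {A : G}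
    (cn : c ^ 2 ^ (k + 1) = n) (ww : w * w = n) (wc : w * c = c⁻¹ * w) (nn : n * n = 1)
    (ψn : ψ (n, n) = 1) (ψ1 : ψ (n, 1) ≠ 1) (AA : A * A = ψ (c, c))
    (hA : ∀ x y x' y', (x = c ∧ x' = c ∨ x = w ∧ x' = c * w ∨ x = 1 ∧ x' = 1) →
      (y = c ∧ y' = c ∨ y = w ∧ y' = c * w ∨ y = 1 ∧ y' = 1) → A * ψ (x, y) = ψ (x', y') * A) :
    ∃ f : Md (ZMod (2 ^ (k + 2))) →* G, Function.Injective f := by
  haveI : Fact (Nat.Prime 2) := ⟨Nat.prime_two⟩
  have H := hyp_zmod k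
  have c1 : Commute A (ψ (c, 1)) := hA _ _ _ _ (by simp) (by simp)
  have c2 : Commute A (ψ (1, c)) := hA _ _ _ _ (by simp) (by simp)
  have w1 : A * ψ (w, 1) = ψ (c * w, 1) * A := hA _ _ _ _ (by simp) (by simp)
  have w2 : A * ψ (1, w) = ψ (1, c * w) * A := hA _ _ _ _ (by simp) (by simp)
  obtain ⟨i, hi⟩ : ∃ i, i = c ^ 2 ^ k := ⟨_, rfl⟩
  have ii : i * i = n := by rw [hi, ← pow_add, ← two_mul, ← pow_succ', cn]
  have ic : Commute i c := hi ▸ (Commute.refl c).pow_left _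
  have wi : w * i = i⁻¹ * w := by
    rw [hi, ← inv_pow]; exact SemiconjBy.pow_right (wc : SemiconjBy w c c⁻¹) _
  have i1 : A * ψ (i, 1) = ψ (i, 1) * A := by
    have := c1.pow_right (2 ^ k)
    rwa [← map_pow, Prod.pow_mk, one_pow, ← hi] at this
  have i2 : A * ψ (1, i) = ψ (1, i) * A := by
    have := c2.pow_right (2 ^ k)
    rwa [← map_pow, Prod.pow_mk, one_pow, ← hi] at this
  have iinv : i⁻¹ = n * i := inv_eq_of_mul_eq_one_left (by rw [mul_assoc, ii, nn])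
  have ht : A * ψ (i, w) = ψ (i, c * w) * A := by
    rw [show (i, w) = (i, 1) * (1, w) by simp, map_mul, ← mul_assoc, i1, mul_assoc, w2, ← mul_assoc, ← map_mul]
    simp
  have hu : A * ψ (w, i * w) = ψ (c * w, i * (c * w)) * A := by
    rw [show (w, i * w) = (w, 1) * ((1, i) * (1, w)) by simp, map_mul, map_mul, ← mul_assoc, w1, mul_assoc,
      ← mul_assoc A, i2, mul_assoc, w2, ← mul_assoc, ← mul_assoc, ← map_mul, ← map_mul]
    simp
  have AN : A ^ 2 ^ (k + 2) = 1 := by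
    rw [pow_succ', pow_mul, pow_two, AA, ← map_pow, Prod.pow_mk, cn, ψn]
  obtain ⟨B, hB⟩ : ∃ B, B = (ψ (1, c))⁻¹ * A := ⟨_, rfl⟩
  have AB : Commute A B := hB ▸ c2.inv_right.mul_right (Commute.refl A)
  have e1 : B * A = ψ (c, 1) := by
    rw [hB, mul_assoc, AA, ← map_inv, ← map_mul]; simp
  obtain ⟨f, hf⟩ := exists_hom (R := ZMod (2 ^ (k + 2))) (fun x => A ^ x.val) (fun x => B ^ x.val)
    (ψ (i, w)) (ψ (w, i * w)) (H10.pow_val_add AN) (fun x y => (AB.pow_pow _ _).eq)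
    (by rw [← map_mul, Prod.mk_mul_mk, ii, ww, ψn])
    (by rw [← map_mul, Prod.mk_mul_mk, ww, mul_assoc, ← mul_assoc w, wi, mul_assoc, mul_inv_cancel_left, ww, ψn])
    (by
      rw [← map_mul, ← map_mul, Prod.mk_mul_mk, Prod.mk_mul_mk, ← one_mul (ψ (i * w, _)), ← ψn, ← map_mul,
        Prod.mk_mul_mk, wi, ← mul_assoc w, wi, iinv]
      simp only [← mul_assoc, nn, one_mul])
    (fun x => SemiconjBy.pow_right (show SemiconjBy _ A B by
      rw [SemiconjBy, hB, mul_assoc, ht, ← mul_assoc, ← map_inv, ← map_mul]; simp) _)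
    (fun x => by
      rw [H10.pow_val_neg AN, ← inv_pow]
      refine SemiconjBy.pow_right (show SemiconjBy _ A A⁻¹ from ?_) _
      rw [SemiconjBy, show A⁻¹ = (A * A)⁻¹ * A by group, AA, mul_assoc, hu, ← mul_assoc, ← map_inv, ← map_mul,
        ← mul_assoc i, ic.eq, mul_assoc c]
      simp)
  refine ⟨f, (MonoidHom.ker_eq_bot_iff f).1 ?_⟩
  by_contra hn
  haveI : Finite (Md (ZMod (2 ^ (k + 2)))) := Finite.of_equiv _ equivProd.symm
  obtain ⟨p, p1, p2, p3⟩ := H5.exists_mem_center_orderOf_eq (p := 2) (IsPGroup.of_card (n := 2 * (k + 2) + 2)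
    (by rw [Md.card, Nat.card_zmod]; ring)) f.ker hn
  rcases H.center (Subgroup.mem_center_iff.1 p2) with rfl | rfl
  · rw [orderOf_one] at p3; omega
  · have e : (2 * 2 ^ k : ZMod (2 ^ (k + 2))) = ((2 ^ (k + 1) : ℕ) : ZMod (2 ^ (k + 2))) := by push_cast; ring
    rw [MonoidHom.mem_ker, hf, e, ZMod.val_cast_of_lt (Nat.pow_lt_pow_right one_lt_two (by omega)),
      ← AB.mul_pow, AB.eq, e1, ← map_pow, Prod.pow_mk, cn, one_pow] at p1
    exact ψ1 p1

variable {F : Type*} [Field F]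

theorem vmul (x y : SL(2, F)) : ((x * y : SL(2, F)) : Matrix (Fin 2) (Fin 2) F) =
    (x : Matrix (Fin 2) (Fin 2) F) * (y : Matrix (Fin 2) (Fin 2) F) := rfl

theorem exists_diag_conj (δ : Fˣ) : ∃ θ : SL(2, F) →* SL(2, F),
    ∀ x, (θ x : Matrix (Fin 2) (Fin 2) F) = !![(δ : F), 0; 0, 1] * x * !![(δ : F)⁻¹, 0; 0, 1] := by
  have e : (!![(δ : F)⁻¹, 0; 0, 1] * !![(δ : F), 0; 0, 1] : Matrix (Fin 2) (Fin 2) F) = 1 := by
    simp [one_fin_two]
  refine ⟨MonoidHom.mk' (fun x => ⟨!![(δ : F), 0; 0, 1] * x * !![(δ : F)⁻¹, 0; 0, 1], by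
    rw [det_mul, det_mul, x.2]; simp [det_fin_two]⟩) fun x y => Subtype.ext ?_, fun _ => rfl⟩
  show _ * (x.1 * y.1) * _ = _ * x.1 * _ * (_ * y.1 * _)
  simp only [Matrix.mul_assoc]
  rw [← Matrix.mul_assoc !![(δ : F)⁻¹, 0; 0, 1], e, Matrix.one_mul]

theorem exists_inj_sl [Finite F] (h2 : (2 : F) ≠ 0) (ψ : SL(2, F) × SL(2, F) →* G) (ψn : ψ (-1, -1) = 1)
    (ψ1 : ψ (-1, 1) ≠ 1)
    (hη : ∀ (δ : Fˣ) (θ : SL(2, F) →* SL(2, F)),
      (∀ x, (θ x : Matrix (Fin 2) (Fin 2) F) = !![(δ : F), 0; 0, 1] * x * !![(δ : F)⁻¹, 0; 0, 1]) →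
      ∃ (a : G) (d : SL(2, F)), (d : Matrix (Fin 2) (Fin 2) F) = !![(δ : F), 0; 0, (δ : F)⁻¹] ∧
        a * a = ψ (d, d) ∧ ∀ x y, a * ψ (x, y) = ψ (θ x, θ y) * a)
    {k : ℕ} {c : SL(2, F)} (hc : orderOf c = 2 * 2 ^ (k + 1)) (htr : tr c ^ 2 ≠ 4) :
    ∃ f : Md (ZMod (2 ^ (k + 2))) →* G, Function.Injective f := by
  obtain ⟨w, w1, w2, w3, -⟩ := H10.exists_dicyclic_gens h2 (pow_ne_zero _ two_ne_zero) hc htr
  have h0 : 2 + tr c ≠ 0 := fun e => htr (by linear_combination (tr c - 2) * e)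
  obtain ⟨θ, hθ⟩ := exists_diag_conj (Units.mk0 _ h0)
  obtain ⟨a, d, hd, aa, ha⟩ := hη _ θ hθ
  rw [Units.val_mk0] at hθ hd
  have hdet := det_eq c
  have htr' : tr c = c 0 0 + c 1 1 := rfl
  have e : (!![(2 + tr c)⁻¹, 0; 0, 1] * !![2 + tr c, 0; 0, 1] : Matrix (Fin 2) (Fin 2) F) = 1 := by
    simp [one_fin_two, h0]
  obtain ⟨g, hg⟩ : ∃ g : SL(2, F), (g : Matrix (Fin 2) (Fin 2) F) = (1 + c) * !![(2 + tr c)⁻¹, 0; 0, 1] :=
    ⟨⟨_, by
      rw [det_mul, det_fin_two, det_fin_two]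
      simp only [Matrix.add_apply, one_apply_eq, of_apply, cons_val', cons_val_zero, cons_val_one, cons_val_fin_one,
        one_apply_ne zero_ne_one, one_apply_ne one_ne_zero]
      field_simp
      linear_combination hdet - htr'⟩, rfl⟩
  have key : ∀ x, ((g * θ x : SL(2, F)) : Matrix (Fin 2) (Fin 2) F) = (1 + c) * x * !![(2 + tr c)⁻¹, 0; 0, 1] :=
    fun x => by
      simp only [vmul, hg, hθ, Matrix.mul_assoc]
      rw [← Matrix.mul_assoc !![(2 + tr c)⁻¹, 0; 0, 1], e, Matrix.one_mul]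
  have wc : w * c = c⁻¹ * w := by rw [← w2, inv_mul_cancel_right]
  have k1 : g * θ c = c * g := Subtype.ext (by
    rw [key, vmul, hg]; noncomm_ring)
  have k2 : g * θ w = c * w * g := Subtype.ext (by
    have : (c * w * c : Matrix (Fin 2) (Fin 2) F) = w := by
      rw [← vmul, ← vmul, mul_assoc, wc, mul_inv_cancel_left]
    rw [key, vmul, vmul, hg, ← Matrix.mul_assoc, Matrix.mul_add, this]
    noncomm_ring)
  have k3 : g * θ g * d = c := Subtype.ext (by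
    rw [vmul, key, hg, hd]
    have : tr c = c 0 0 + c 1 1 := rfl
    ext i j
    fin_cases i <;> fin_cases j <;> simp [Matrix.mul_apply, Fin.sum_univ_two] <;> field_simp
    · linear_combination -hdet - c 0 0 * this
    · linear_combination -this * c 0 1
    · linear_combination -this * c 1 0
    · linear_combination -hdet - c 1 1 * this)
  have kk : ∀ x x', (x = c ∧ x' = c ∨ x = w ∧ x' = c * w ∨ x = 1 ∧ x' = 1) → g * θ x = x' * g := by
    rintro _ _ (⟨rfl, rfl⟩ | ⟨rfl, rfl⟩ | ⟨rfl, rfl⟩)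
    exacts [k1, k2, by simp]
  refine exists_inj ψ (A := ψ (g, g) * a) (w1.symm.trans w3) w3 wc (by simp) ψn ψ1 ?_ fun x y x' y' hx hy => ?_
  · rw [mul_assoc, ← mul_assoc a, ha, mul_assoc, aa, ← map_mul, ← map_mul, Prod.mk_mul_mk, Prod.mk_mul_mk,
      ← mul_assoc, k3]
  · rw [mul_assoc, ha, ← mul_assoc, ← mul_assoc, ← map_mul, ← map_mul, Prod.mk_mul_mk, Prod.mk_mul_mk,
      kk _ _ hx, kk _ _ hy]

open H37 H38 Cfsg Cfsg.Lie

theorem sl_ext {f g : SL(2, F) →* G} (h : ∀ b t, f (Rk1.slx b t) = g (Rk1.slx b t)) : f = g := by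
  have := Rk1.sl_top (K := F)
  rw [PreElts.Gp, PreElts.XS_eq_closure] at this
  refine MonoidHom.eq_of_eqOn_dense this ?_
  rintro _ ⟨b, -, t, rfl⟩
  exact h b t

theorem g2_facts : (∀ r s k : Fin chevG2.nroots, chevG2.pairing r s = 0 →
      ¬ (2 ≤ chevG2.pairing r k ∧ 2 ≤ chevG2.pairing s k)) ∧
    chevG2.pairing 7 11 = 0 ∧ chevG2.pairing 10 7 = 1 ∧ chevG2.pairing 10 11 = 1 ∧ chevG2.pairing 7 6 = -3 ∧
    ∀ i : Fin chevG2.rank, (chevG2.coroot.getD 10 #[]).getD i 0 = 1 ∧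
      (chevG2.coroot.getD 7 #[]).getD i 0 + (chevG2.coroot.getD 11 #[]).getD i 0 = 2 := by
  decide +kernel

theorem exists_inj_g2 [Finite F] (h2 : (2 : F) ≠ 0) {k : ℕ} {c : SL(2, F)} (hc : orderOf c = 2 * 2 ^ (k + 1))
    (htr : tr c ^ 2 ≠ 4) : ∃ f : Md (ZMod (2 ^ (k + 2))) →* chevG2.group F, Function.Injective f := by
  obtain ⟨R, E₀, hE⟩ := H38.exists_isMat (D := chevG2) (by simp) F
  obtain ⟨g1, g2, g3, g4, g5, g6⟩ := g2_facts
  let E := hE.grp
  have h3 : E.R3 := hE.grp_R3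
  let r6 : Fin chevG2.nroots := ⟨6, by decide⟩
  let r7 : Fin chevG2.nroots := ⟨7, by decide⟩
  let r10 : Fin chevG2.nroots := ⟨10, by decide⟩
  let r11 : Fin chevG2.nroots := ⟨11, by decide⟩
  replace g2 : R.pair r7 r11 = 0 := (R.pairing_eq r7 r11).symm.trans g2
  replace g3 : R.pair r10 r7 = 1 := (R.pairing_eq r10 r7).symm.trans g3
  replace g4 : R.pair r10 r11 = 1 := (R.pairing_eq r10 r11).symm.trans g4
  replace g5 : R.pair r7 r6 = -3 := (R.pairing_eq r7 r6).symm.trans g5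
  have hφ : ∀ r, ∃ φ : SL(2, F) →* chevG2.group F, (∀ b t, φ (Rk1.slx b t) = E.x (cond b r (R.neg r)) t) ∧
      ∀ c, φ ((Rk1.sl F).elts.h true c) = E.h r c := fun r => by
    obtain ⟨φ, -, h⟩ := exists_sl2_hom E h3 r
    have a : ∀ t, φ (Rk1.slx true t) = E.x r t := fun t => (h _ t).1 rfl
    have b : ∀ t, φ (Rk1.slx false t) = E.x (R.neg r) t := fun t => (h _ t).2 rfl
    refine ⟨φ, fun b' t => by cases b' <;> simp only [a, b, cond], fun c => ?_⟩
    simp only [PreElts.h, PreElts.n, map_mul]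
    exact congrArg₂ _ (congrArg₂ _ (congrArg₂ _ (a _) (b _)) (a _)) (congrArg₂ _ (congrArg₂ _ (a _) (b _)) (a _))
  obtain ⟨φ1, a1, b1⟩ := hφ r7
  obtain ⟨φ2, a2, b2⟩ := hφ r11
  have cm : ∀ r s, R.pair r s = 0 → ∀ t u, Commute (E.x r t) (E.x s u) := fun r s e t u => by
    have := E.comm_of_ne_neg (r := r) (s := s) (fun a => by
      rw [a, R.pair_neg_right, R.pair_self] at e; omega) t u
    rw [show R.Cone r s = ∅ from Set.eq_empty_of_forall_notMem fun k ⟨i, j, hi, hj, hk⟩ => g1 r s k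
      ((R.pairing_eq r s).trans e) (by
        have e' := R.pair_eq_zero_comm.1 e
        have p1 := R.pair_self r
        have p2 := R.pair_self s
        rw [R.pairing_eq, R.pairing_eq]
        simp only [RS.pair] at e e' p1 p2 ⊢
        rw [hk, R.pv_add, R.pv_add, R.pv_smul, R.pv_smul, R.pv_smul, R.pv_smul, e, e', p1, p2]
        omega), E.XS_empty, Subgroup.mem_bot] at this
    exact commutatorElement_eq_one_iff_commute.1 this
  have cφ : ∀ x y, Commute (φ1 x) (φ2 y) := fun x y => by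
    have s1 : ∀ b t y, Commute (φ1 (Rk1.slx b t)) (φ2 y) := fun b t y => by
      have : (MulAut.conj (φ1 (Rk1.slx b t))).toMonoidHom.comp φ2 = φ2 := sl_ext fun b' t' => by
        have : Commute (φ1 (Rk1.slx b t)) (φ2 (Rk1.slx b' t')) := by
          rw [a1, a2]
          refine cm _ _ ?_ _ _
          cases b <;> cases b' <;> simp only [cond, R.pair_neg_left, R.pair_neg_right, g2, neg_zero]
        exact mul_inv_eq_iff_eq_mul.2 this
      exact mul_inv_eq_iff_eq_mul.1 (DFunLike.congr_fun this y)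
    have : (MulAut.conj (φ2 y)).toMonoidHom.comp φ1 = φ1 := sl_ext fun b t =>
      mul_inv_eq_iff_eq_mul.2 (s1 b t y).symm
    exact Commute.symm (mul_inv_eq_iff_eq_mul.1 (DFunLike.congr_fun this x))
  have sq : ∀ δ : Fˣ, E.h r10 δ * E.h r10 δ = E.h r7 δ * E.h r11 δ := fun δ => by
    rw [E.h_eq_tor h3, E.h_eq_tor h3, E.h_eq_tor h3, ← map_mul, ← map_mul]
    congr 1
    ext1 i
    rw [Pi.mul_apply, Pi.mul_apply, ← _root_.zpow_add, ← _root_.zpow_add, R.cor_eq, R.cor_eq, R.cor_eq, (g6 i).1, (g6 i).2]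
    rfl
  have m1 : (Rk1.sl F).elts.h true (-1) = -1 := Subtype.ext (by
    rw [Rk1.sl_h true (neg_ne_zero.2 one_ne_zero)]; simp [one_fin_two])
  refine exists_inj_sl h2 (φ1.noncommCoprod φ2 cφ) ?_ (fun e => ?_) (fun δ θ hθ => ?_) hc htr
  · have := sq (-1)
    rw [h3 _ _ _ (Units.ne_zero _) (Units.ne_zero _), Units.val_neg, Units.val_one, neg_mul_neg, one_mul,
      E.h_one] at this
    rw [MonoidHom.noncommCoprod_apply, ← m1, b1, b2, ← this]
  · rw [MonoidHom.noncommCoprod_apply, map_one, mul_one, ← m1, b1] at e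
    have := E.hconj r7 r6 (neg_ne_zero.2 one_ne_zero) 1
    rw [e, g5, one_mul, inv_one, mul_one, mul_one, show (-1 : F) ^ (-3 : ℤ) = -1 by norm_num, E.x_neg,
      eq_inv_iff_mul_eq_one, E.x_add] at this
    have e2 : chevG2.x F r6 (1 + 1) = 1 := by
      rw [← hE.coe_x, ← hE.grp_x, this]; rfl
    exact h2 (by rw [← (hE.facts.eq_one _ r6.2 _).1 e2]; norm_num)
  · have cj : ∀ (r) (φ : SL(2, F) →* chevG2.group F), R.pair r10 r = 1 →
        (∀ b t, φ (Rk1.slx b t) = E.x (cond b r (R.neg r)) t) → ∀ x, E.h r10 δ * φ x = φ (θ x) * E.h r10 δ :=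
      fun r φ p a x => by
        have : (MulAut.conj (E.h r10 δ)).toMonoidHom.comp φ = φ.comp θ := sl_ext fun b t => by
          show E.h r10 δ * φ _ * _ = φ (θ _)
          rw [a, E.hconj _ _ δ.ne_zero, ← a]
          congr 1
          refine Subtype.ext ?_
          rw [hθ]
          cases b <;> simp [p, R.pair_neg_right, mul_comm]
        exact mul_inv_eq_iff_eq_mul.1 (DFunLike.congr_fun this x)
    refine ⟨E.h r10 δ, (Rk1.sl F).elts.h true δ, Rk1.sl_h true δ.ne_zero, ?_, fun x y => ?_⟩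
    · rw [MonoidHom.noncommCoprod_apply, b1, b2, sq]
    · simp only [MonoidHom.noncommCoprod_apply]
      rw [← mul_assoc, cj _ _ g3 a1, mul_assoc, cj _ _ g4 a2, mul_assoc]

theorem sylow_g2 [Fintype F] (hF : Odd (Fintype.card F)) (P : Sylow 2 (chevG2.group F)) :
    ∃ k, Nonempty ((P : Subgroup (chevG2.group F)) ≃* Md (ZMod (2 ^ (k + 2)))) := by
  haveI : Fact (Nat.Prime 2) := ⟨Nat.prime_two⟩
  have hc := Cfsg.Agent.S1059.result (F := F) rfl
  have h1 := Fintype.one_lt_card (α := F)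
  rw [← Nat.card_eq_fintype_card] at hF h1 hc
  obtain ⟨k, m, hk, hm, e, hd, -⟩ := H10.exists_two_part hF h1
  obtain ⟨k, rfl⟩ := Nat.exists_eq_add_of_le' hk
  obtain ⟨c, c1, c2⟩ := H10.exists_two_elt hF hk hd
  obtain ⟨f, hf⟩ := exists_inj_g2 (H10.two_ne_zero_of_odd_card hF) c1 c2
  generalize Nat.card F = q at *
  haveI : Finite (chevG2.group F) := Nat.finite_of_card_ne_zero (by
    rw [hc]
    exact mul_ne_zero (mul_ne_zero (by positivity) (Nat.sub_ne_zero_of_lt (Nat.one_lt_pow two_ne_zero h1)))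
      (Nat.sub_ne_zero_of_lt (Nat.one_lt_pow (by norm_num) h1)))
  refine ⟨k, H10.nonempty_sylow_equiv_of_injective f hf (k := 2 * (k + 2) + 2)
    (m := m ^ 2 * (q ^ 4 * (q ^ 4 + q ^ 2 + 1))) (by rw [Md.card, Nat.card_zmod]; ring) ?_ ?_ P⟩
  · obtain ⟨q, rfl⟩ := Nat.exists_eq_add_of_le' h1.le
    rw [hc, show (q + 1) ^ 2 - 1 = q * (q + 2) from Nat.sub_eq_of_eq_add (by ring),
      show (q + 1) ^ 6 - 1 = q * (q + 2) * ((q + 1) ^ 4 + (q + 1) ^ 2 + 1) from Nat.sub_eq_of_eq_add (by ring)]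
    rw [Nat.add_sub_cancel] at e
    calc _ = ((q + 1) * q * (q + 1 + 1)) ^ 2 * ((q + 1) ^ 4 * ((q + 1) ^ 4 + (q + 1) ^ 2 + 1)) := by ring
      _ = _ := by rw [e]; ring
  · rw [← even_iff_two_dvd, Nat.not_even_iff_odd]
    exact hm.pow.mul (hF.pow.mul ((hF.pow.add_odd hF.pow).add_one))

end H91.G2S
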